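import Cfsg.Agent.Lib.F24.Blocks

/-!
# The tables for the exceptional graph automorphism of `B₂` in characteristic two
-/

set_option autoImplicit false
set_option linter.unusedSectionVars false
set_option linter.unusedVariables false

namespace Cfsg.Agent.Lib.F24.B2Data

open scoped MatrixGroups Matrix
open Cfsg _root_.Cfsg.Lie ChevalleyDatum
open Cfsg.Agent.Lib.Chev
open Tables AxBasic
open Cfsg.Agent.Lib.F24.Blocks

/-- The images of roots. -/
def rhoL : List ℕ := [1, 0, 3, 2, 5, 4, 7, 6]

/-- The images of roots. -/
def rhoN (r : ℕ) : ℕ := rhoL.getD r r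

/-- The permutation of the roots. -/
def rho : Equiv.Perm (Fin chevB2.nroots) where
  toFun r := ⟨rhoN r, by revert r; decide⟩
  invFun r := ⟨rhoN r, by revert r; decide⟩
  left_inv := by intro r; revert r; decide
  right_inv := by intro r; revert r; decide

@[simp] lemma rho_val (r : Fin chevB2.nroots) : ((rho r : Fin chevB2.nroots) : ℕ) = rhoN r := rfl

/-- The short roots. -/
def shortL : List ℕ := [1, 2, 5, 6]

/-- The exponents: two on short roots, one on long roots. -/
def muN (r : ℕ) : ℕ := if r ∈ shortL then 2 else 1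

/-- A coordinate from a number: `0`, `1` for the coroots, then the roots. -/
def cd (n : ℕ) : chevB2.Idx :=
  if h : n < 2 then Sum.inl ⟨n, h⟩ else if h' : n - 2 < 8 then Sum.inr ⟨n - 2, h'⟩ else Sum.inl ⟨0, by decide⟩

/-- The numbers of the coordinates of the submodule. -/
def e₁L : List ℕ := [0] ++ shortL.map (· + 2)

/-- The numbers of the coordinates of the quotient. -/
def e₂L : List ℕ := [1] ++ shortL.map (fun r => rhoN r + 2)

/-- The coordinates of the submodule. -/
def e₁ (i : Fin 5) : chevB2.Idx := cd (e₁L.getD i 0)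

/-- The coordinates of the quotient. -/
def e₂ (i : Fin 5) : chevB2.Idx := cd (e₂L.getD i 0)

set_option maxRecDepth 100000 in
theorem check_bij : Function.Bijective (Sum.elim e₁ e₂) := by
  decide +kernel

set_option maxRecDepth 100000 in
theorem check_tri : ∀ (r : Fin chevB2.nroots) (i j : Fin 5), (pol chevB2 r (e₂ i) (e₁ j)).all (fun x => x.2 % ((2 : ℕ) : ℤ) == 0) = true := by
  decide +kernel

set_option maxRecDepth 100000 in
theorem check_twist : ∀ (r : Fin chevB2.nroots) (i j : Fin 5),
    sameMod 2 5 (scale (muN r) (pol chevB2 (rho r) (e₁ i) (e₁ j))) (pol chevB2 r (e₂ i) (e₂ j)) = true := by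
  decide +kernel

/-- The block table. -/
def TB : BlockTab chevB2 2 5 5 where
  e₁ := e₁
  e₂ := e₂
  rho := rho
  mu := muN
  bij := check_bij
  tri := check_tri
  twist := check_twist

end Cfsg.Agent.Lib.F24.B2Data
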