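import Cfsg.Agent.Lib.F24.Main

/-! # Elements of `2`-power order in `²F₄(q)` have order at most `32`

The group acts faithfully in dimension `26` in characteristic `2`, so a unipotent element satisfies
`(A - 1) ^ 26 = 0`, hence `A ^ 32 = 1`. -/

set_option autoImplicit false

set_option linter.unusedSectionVars false
set_option linter.unusedVariables false
set_option linter.ambiguousOpen false

namespace Cfsg.Agent.Lib.F24.Elt

open scoped MatrixGroups Matrix
open Cfsg _root_.Cfsg.Lie ChevalleyDatum Polynomial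
open Cfsg.Agent.Lib.Chev
open Tables Tables2 Tables3 Raise Basic AxBasic Torus Products Products2 Mono1 Mono2 Mono3 Bn ChevSimple
open Cfsg.Agent.Lib.Twisted.Fact Cfsg.Agent.Lib.Twisted.Bruhat Cfsg.Agent.Lib.Twisted.Tw
open Cfsg.Agent.Lib.F24.Blocks Cfsg.Agent.Lib.F24.F4Data Cfsg.Agent.Lib.F24.Tw Cfsg.Agent.Lib.F24.Main

section Mat

variable {K : Type*} [Field K] [CharP K 2] {n : Type*} [Fintype n] [DecidableEq n]

/-- A nilpotent square matrix over a field vanishes to the power of its size. -/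
theorem pow_card_eq_zero {M : Matrix n n K} (hM : IsNilpotent M) : M ^ Fintype.card n = 0 := by
  have h := Matrix.isNilpotent_charpoly_sub_pow_of_isNilpotent hM
  have h2 : M.charpoly - X ^ Fintype.card n = 0 := h.eq_zero
  have h3 : M.charpoly = X ^ Fintype.card n := sub_eq_zero.1 h2
  have h4 := Matrix.aeval_self_charpoly M
  rw [h3] at h4
  simpa using h4

/-- Matrices over a characteristic two field: a `2`-power order matrix of size `≤ 2 ^ k`
satisfies `A ^ (2 ^ k) = 1`. -/
theorem pow_two_pow_eq_one {A : Matrix n n K} {j k : ℕ} (hA : A ^ (2 ^ j) = 1)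
    (hk : Fintype.card n ≤ 2 ^ k) : A ^ (2 ^ k) = 1 := by
  rcases isEmpty_or_nonempty n with hn | hn
  · exact Subsingleton.elim _ _
  have : CharP (Matrix n n K) 2 := Matrix.charP 2
  have : Fact (Nat.Prime 2) := ⟨Nat.prime_two⟩
  have hs : ∀ i, (A - 1) ^ (2 ^ i) = A ^ (2 ^ i) - 1 := fun i => by
    have := sub_pow_char_pow_of_commute (R := Matrix n n K) (p := 2) (n := i) (Commute.one_right A)
    simpa using this
  have hnil : IsNilpotent (A - 1) := ⟨2 ^ j, by rw [hs, hA, sub_self]⟩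
  have h0 := pow_card_eq_zero hnil
  have h1 : (A - 1) ^ (2 ^ k) = 0 := pow_eq_zero_of_le hk h0
  rw [hs] at h1
  exact sub_eq_zero.1 h1

end Mat

section Main

variable {K : Type*} [Field K] [Fintype K] {m : ℕ} (hK : Fintype.card K = 2 ^ (2 * m + 1))

include hK

/-- Elements of `2`-power order in `²F₄(q)` satisfy `x ^ 32 = 1`. -/
theorem pow_32 (x : ↥(twistedF4 K (2 ^ m))) (hx : ∃ j : ℕ, orderOf x = 2 ^ j) : x ^ 32 = 1 := by
  have := charP_of_card hK
  obtain ⟨φ, hφ, hφ2⟩ := exists_φ hK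
  have ax : Ax chevF4 K := Cfsg.Agent.Lib.Lie.AxOf.ax_of_mem hmemF4
  obtain ⟨j, hj⟩ := hx
  have hmem : (x : GL chevF4.Idx K) ∈ chevF4.group K := (G1_le φ hφ hφ2 ax x.2).1
  set g : ↥(chevF4.group K) := ⟨x, hmem⟩ with hg
  have hgj : g ^ (2 ^ j) = 1 := by
    apply Subtype.ext
    have : (x : GL chevF4.Idx K) ^ (2 ^ j) = 1 := by
      have h := pow_orderOf_eq_one x
      rw [hj] at h
      exact_mod_cast congrArg Subtype.val h
    simpa [hg] using this
  have h1 : (TB.gA (K := K) ax g) ^ (2 ^ j) = 1 := by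
    rw [← map_pow, hgj, map_one]
  have h2 : (TB.gA (K := K) ax g) ^ (2 ^ 5) = 1 :=
    pow_two_pow_eq_one (k := 5) h1 (by simp)
  have h3 : g ^ 32 = 1 := gA_inj ax (by rw [map_pow, map_one]; simpa using h2)
  apply Subtype.ext
  have h4 := congrArg Subtype.val h3
  simpa [hg] using h4

theorem order_le (x : ↥(twistedF4 K (2 ^ m))) (hx : ∃ j : ℕ, orderOf x = 2 ^ j) : orderOf x ≤ 32 :=
  Nat.le_of_dvd (by norm_num) (orderOf_dvd_of_pow_eq_one (pow_32 hK x hx))

end Main

end Cfsg.Agent.Lib.F24.Elt
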