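import Cfsg.Agent.Lib.F24.PerfF4
import Cfsg.Agent.Lib.F24.InvForm

/-!
# `²F₄(q)`, `q > 2`, is generated by two elements
-/

set_option autoImplicit false
set_option linter.unusedSectionVars false
set_option linter.unusedVariables false
set_option linter.ambiguousOpen false
set_option linter.dupNamespace false
set_option maxHeartbeats 400000

namespace Cfsg.Agent.Lib.F24.Gen2

open scoped MatrixGroups Matrix
open Cfsg _root_.Cfsg.Lie ChevalleyDatum
open Cfsg.Agent.Lib.Chev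
open Tables Tables2 Tables3 Raise Basic AxBasic Torus Products Products2 Mono1 Mono2 Mono3 Bn ChevSimple Diag
open Cfsg.Agent.Lib.Twisted.Fact Cfsg.Agent.Lib.Twisted.Bruhat Cfsg.Agent.Lib.Twisted.Tw
open Cfsg.Agent.Lib.Twisted.Struct Cfsg.Agent.Lib.Twisted.Check Cfsg.Agent.Lib.Twisted.Ortho
open Cfsg.Agent.Lib.Twisted.TorusFix
open Cfsg.Agent.Lib.Twisted.Perf
open Cfsg.Agent.Lib.F24.Blocks Cfsg.Agent.Lib.F24.F4Data Cfsg.Agent.Lib.F24.Tw Cfsg.Agent.Lib.F24.WordEq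
open Cfsg.Agent.Lib.F24.TD Cfsg.Agent.Lib.F24.Main Cfsg.Agent.Lib.F24.H1 Cfsg.Agent.Lib.F24.PerfF4
open Cfsg.Agent.Lib.F24.InvForm
open Cfsg.Agent.Lib.Twisted.Struct.TD

/-- An additive subgroup stable under all units, with a nonzero element, is everything. -/
lemma top_of_stable {F : Type*} [Field F] (V : AddSubgroup F) (hV : ∀ x ∈ V, ∀ l : Fˣ, (l : F) * x ∈ V) {x : F} (hx : x ∈ V)
    (hx0 : x ≠ 0) (y : F) : y ∈ V := by
  by_cases hy : y = 0
  · rw [hy]; exact V.zero_mem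
  · have := hV x hx (Units.mk0 (y / x) (div_ne_zero hy hx0))
    simpa [div_mul_cancel₀ _ hx0] using this

/-- The word identity. -/
lemma word_id {G : Type*} [Group G] (N h x y : G) (h1 : N⁻¹ * h⁻¹ * N = h) (h2 : h * y = y * h) :
    h * (N * y * x)⁻¹ * h⁻¹ * (N * y * x) * (h * h)⁻¹ = (h * x * h⁻¹)⁻¹ * (h * h * x * (h * h)⁻¹) := by
  have e1 : h * (N * y * x)⁻¹ * h⁻¹ * (N * y * x) * (h * h)⁻¹ = h * x⁻¹ * y⁻¹ * (N⁻¹ * h⁻¹ * N) * y * x * (h * h)⁻¹ := by
    group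
  rw [e1, h1]
  have e2 : y⁻¹ * h * y = h := by
    rw [mul_assoc, h2]
    group
  calc h * x⁻¹ * y⁻¹ * h * y * x * (h * h)⁻¹ = h * x⁻¹ * (y⁻¹ * h * y) * x * (h * h)⁻¹ := by group
    _ = _ := by rw [e2]; group

variable {K : Type*} [Field K] [CharP K 2]

section Conj

variable (ax : Ax chevF4 K)

lemma sG_conj {i : ℕ} (hi : i < chevF4.rank) {s : ℕ} (hs : s < chevF4.nroots) (t : K) :
    sG ax i * xG ax s t * (sG ax i)⁻¹ = xG ax (chevF4.reflectRoot i s) t := by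
  obtain ⟨η, hη, h1, -⟩ := ax.n_simple i s hi hs
  have e : ((η : ℤ) : K) = 1 := by
    rcases hη with rfl | rfl
    · simp
    · simpa using neg_eq (1 : K)
  have : sG ax i * xG ax s t = xG ax (chevF4.reflectRoot i s) t * sG ax i := Units.ext (by
    have := h1 t
    rw [e, one_mul] at this
    simpa [sG_val] using this)
  rw [this]
  simp

lemma nw_conj (l : List ℕ) (hl : ∀ i ∈ l, i < chevF4.rank) {s : ℕ} (hs : s < chevF4.nroots) (t : K) :
    nw chevF4 ax l * xG ax s t * (nw chevF4 ax l)⁻¹ = xG ax (wWord chevF4 l s) t := by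
  induction l with
  | nil => simp [wWord]
  | cons i l ih =>
    have ih' := ih (fun j hj => hl j (by simp [hj]))
    have hl' : ∀ j ∈ l, j < chevF4.rank := fun j hj => hl j (List.mem_cons_of_mem _ hj)
    have hlt : wWord chevF4 l s < chevF4.nroots := by
      have := wPw_val hF hl' (⟨s, hs⟩ : Fin chevF4.nroots)
      simp only at this
      rw [← this]
      exact Fin.isLt _
    have e : nw chevF4 ax (i :: l) * xG ax s t * (nw chevF4 ax (i :: l))⁻¹ =
        sG ax i * (nw chevF4 ax l * xG ax s t * (nw chevF4 ax l)⁻¹) * (sG ax i)⁻¹ := by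
      rw [nw_cons]
      group
    rw [e, ih', sG_conj ax (hl i (by simp)) hlt]
    rfl

/-- The word of the longest element. -/
def w₀ : List ℕ := Cf.flat Cf.L₀

set_option maxRecDepth 100000 in
theorem w₀_neg : ∀ r : Fin chevF4.nroots, wWord chevF4 w₀ r = chevF4.neg r := by decide +kernel

theorem w₀_lt : ∀ i ∈ w₀, i < chevF4.rank := by decide +kernel

/-- The longest element. -/
noncomputable def N₀ (ax : Ax chevF4 K) : GL chevF4.Idx K := nw chevF4 ax w₀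

lemma N₀_conj {s : ℕ} (hs : s < chevF4.nroots) (t : K) : N₀ ax * xG ax s t * (N₀ ax)⁻¹ = xG ax (chevF4.neg s) t := by
  rw [N₀, nw_conj ax w₀ w₀_lt hs, show wWord chevF4 w₀ s = chevF4.neg s from w₀_neg ⟨s, hs⟩]

lemma N₀_conj' {s : ℕ} (hs : s < chevF4.nroots) (t : K) : (N₀ ax)⁻¹ * xG ax s t * N₀ ax = xG ax (chevF4.neg s) t := by
  have h1 := N₀_conj ax (hF.neg_lt s hs) t
  rw [hF.neg_neg s hs] at h1
  rw [← h1]
  group

lemma prodN_eq (L : List (Fin 2)) : ClsTab.prodN (nF ax) L = nw chevF4 ax (Cf.flat L) := by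
  induction L with
  | nil => rfl
  | cons j L ih =>
    simp only [ClsTab.prodN, ClsTab.flat, nw_append, ih]
    rfl

end Conj

section Tor

variable (ax : Ax chevF4 K)

lemma N₀_hG {s : ℕ} (hs : s < chevF4.nroots) (u : Kˣ) :
    N₀ ax * hG ax s (u : K) * (N₀ ax)⁻¹ = hG ax (chevF4.neg s) (u : K) := by
  obtain ⟨c, H⟩ := exists_isNor_nw hF hF2 ax w₀_lt
  have e := n_conj ax H ⟨s, hs⟩ u
  have e5 : ((wPw hF w₀ ⟨s, hs⟩ : Fin chevF4.nroots) : ℕ) = chevF4.neg s :=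
    (wPw_val hF w₀_lt _).trans (w₀_neg ⟨s, hs⟩)
  rw [e5] at e
  exact e

lemma tor_inv' (c : ℕ → Kˣ) : tor chevF4 c⁻¹ = (tor chevF4 c)⁻¹ := (torHom chevF4 (F := K)).map_inv c

lemma N₀_tor (a b c d : Kˣ) : N₀ ax * tor chevF4 (psi chevF4 (vec4 a b c d)) * (N₀ ax)⁻¹ =
    (tor chevF4 (psi chevF4 (vec4 a b c d)))⁻¹ := by
  rw [tor_list ax]
  have e0 : chevF4.simple 0 = 33 := by decide
  have e1 : chevF4.simple 1 = 27 := by decide
  have e2 : chevF4.simple 2 = 25 := by decide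
  have e3 : chevF4.simple 3 = 24 := by decide
  rw [e0, e1, e2, e3]
  set n := N₀ ax with hn
  simp only [vec4]
  have key : n * (hG ax 33 (a : K) * (hG ax 27 (b : K) * (hG ax 25 (c : K) * hG ax 24 (d : K)))) * n⁻¹ =
      (n * hG ax 33 (a : K) * n⁻¹) * ((n * hG ax 27 (b : K) * n⁻¹) * ((n * hG ax 25 (c : K) * n⁻¹) * (n * hG ax 24 (d : K) * n⁻¹))) := by
    group
  rw [key, hn, N₀_hG ax (s := 33) (by decide) a, N₀_hG ax (s := 27) (by decide) b, N₀_hG ax (s := 25) (by decide) c,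
    N₀_hG ax (s := 24) (by decide) d]
  have n33 : chevF4.neg 33 = 14 := by decide
  have n27 : chevF4.neg 27 = 20 := by decide
  have n25 : chevF4.neg 25 = 22 := by decide
  have n24 : chevF4.neg 24 = 23 := by decide
  rw [n33, n27, n25, n24]
  rw [hG_vec ax (r := 14) (by decide) a (-1) 0 0 0 (by decide +kernel), hG_vec ax (r := 20) (by decide) b 0 (-1) 0 0 (by decide +kernel),
    hG_vec ax (r := 22) (by decide) c 0 0 (-1) 0 (by decide +kernel), hG_vec ax (r := 23) (by decide) d 0 0 0 (-1) (by decide +kernel)]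
  rw [hG_vec ax (r := 33) (by decide) a 1 0 0 0 (by decide +kernel), hG_vec ax (r := 27) (by decide) b 0 1 0 0 (by decide +kernel),
    hG_vec ax (r := 25) (by decide) c 0 0 1 0 (by decide +kernel), hG_vec ax (r := 24) (by decide) d 0 0 0 1 (by decide +kernel)]
  simp only [← tor_mul, ← psi_mul, ← tor_inv', ← psi_inv]
  congr 1
  apply psi_congr
  intro i hi
  interval_cases i <;> simp [vec4]

lemma N₀_inv_tor (a b c d : Kˣ) : (N₀ ax)⁻¹ * (tor chevF4 (psi chevF4 (vec4 a b c d)))⁻¹ * N₀ ax =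
    tor chevF4 (psi chevF4 (vec4 a b c d)) := by
  rw [← N₀_tor ax]
  group

end Tor

section Cls

variable {e : ℕ} (φ : K →+* K) (hφ : ∀ t, φ t = t ^ e) (hφ2 : ∀ t, (φ (φ t)) ^ 2 = t) (ax : Ax chevF4 K)

/-- The class of the pair. -/
noncomputable def xa (ax : Ax chevF4 K) (φ : K →+* K) (t : K) : GL chevF4.Idx K := xG ax f4p1 (φ t) * xG ax f4p4 t

/-- The opposite class of the pair. -/
noncomputable def xam (ax : Ax chevF4 K) (φ : K →+* K) (t : K) : GL chevF4.Idx K := xG ax f4m1 (φ t) * xG ax f4m4 t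

/-- The class of type `B₂`. -/
noncomputable def al (ax : Ax chevF4 K) (φ : K →+* K) (t u : K) : GL chevF4.Idx K := αV ax φ f4a f4b f4ab f4aab t u

/-- The opposite class of type `B₂`. -/
noncomputable def alm (ax : Ax chevF4 K) (φ : K →+* K) (t u : K) : GL chevF4.Idx K := αV ax φ f4ma f4mb f4mab f4maab t u

lemma xa_add (s t : K) : xa ax φ (s + t) = xa ax φ s * xa ax φ t := by
  have H : CommPair chevF4 f4p4 f4p1 := by decide +kernel
  unfold xa
  rw [map_add, ← xG_add, ← xG_add]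
  have := H.comm ax s (φ t)
  calc xG ax f4p1 (φ s) * xG ax f4p1 (φ t) * (xG ax f4p4 s * xG ax f4p4 t)
      = xG ax f4p1 (φ s) * (xG ax f4p1 (φ t) * xG ax f4p4 s) * xG ax f4p4 t := by group
    _ = xG ax f4p1 (φ s) * (xG ax f4p4 s * xG ax f4p1 (φ t)) * xG ax f4p4 t := by rw [this]
    _ = _ := by group

lemma xa_zero : xa ax φ 0 = 1 := by
  have := xa_add φ ax 0 0
  rw [add_zero] at this
  exact mul_eq_left.mp this.symm

lemma xa_inv (t : K) : (xa ax φ t)⁻¹ = xa ax φ t := by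
  apply inv_eq_of_mul_eq_one_right
  rw [← xa_add, add_self', xa_zero]

include hφ2 in
lemma al_mul (t u t' u' : K) : al ax φ t u * al ax φ t' u' = al ax φ (t + t') (u + u' + φ t * t') :=
  α_mul ax bt_pos btx_pos φ hφ2 t u t' u'

include hφ2 in
lemma al_zero : al ax φ 0 0 = 1 := by
  have := al_mul φ hφ2 ax 0 0 0 0
  simp only [add_zero, mul_zero] at this
  exact mul_eq_left.mp this

include hφ2 in
lemma al_inv (t u : K) : (al ax φ t u)⁻¹ = al ax φ t (u + φ t * t) := by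
  apply inv_eq_of_mul_eq_one_right
  rw [al_mul φ hφ2, add_self', ← add_assoc, add_self', zero_add, add_self', al_zero φ hφ2]

lemma N₀_xa (t : K) : (N₀ ax)⁻¹ * xa ax φ t * N₀ ax = xam ax φ t := by
  have e : (N₀ ax)⁻¹ * xa ax φ t * N₀ ax = ((N₀ ax)⁻¹ * xG ax f4p1 (φ t) * N₀ ax) * ((N₀ ax)⁻¹ * xG ax f4p4 t * N₀ ax) := by
    simp only [xa]
    group
  rw [e, N₀_conj' ax (by decide), N₀_conj' ax (by decide)]
  rfl

lemma N₀_xa' (t : K) : N₀ ax * xa ax φ t * (N₀ ax)⁻¹ = xam ax φ t := by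
  have e : N₀ ax * xa ax φ t * (N₀ ax)⁻¹ = (N₀ ax * xG ax f4p1 (φ t) * (N₀ ax)⁻¹) * (N₀ ax * xG ax f4p4 t * (N₀ ax)⁻¹) := by
    simp only [xa]
    group
  rw [e, N₀_conj ax (by decide), N₀_conj ax (by decide)]
  rfl

lemma N₀_al (t u : K) : N₀ ax * al ax φ t u * (N₀ ax)⁻¹ = alm ax φ t u := by
  have e : N₀ ax * al ax φ t u * (N₀ ax)⁻¹ =
      (N₀ ax * xG ax f4a (φ t) * (N₀ ax)⁻¹) * (N₀ ax * xG ax f4b t * (N₀ ax)⁻¹) *
      (N₀ ax * xG ax f4ab (φ t * t + u) * (N₀ ax)⁻¹) * (N₀ ax * xG ax f4aab ((φ u) ^ 2) * (N₀ ax)⁻¹) := by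
    simp only [al, αV, V]
    group
  rw [e, N₀_conj ax (by decide), N₀_conj ax (by decide), N₀_conj ax (by decide), N₀_conj ax (by decide)]
  rfl

/-- The action of the torus. -/
lemma tor_xa (y : ℕ → Kˣ) (l : Kˣ) (h0 : y 0 = φu φ l) (h3 : y 3 = l) (t : K) :
    tor chevF4 y * xa ax φ t * (tor chevF4 y)⁻¹ = xa ax φ (l * t) := by
  have e : tor chevF4 y * xa ax φ t * (tor chevF4 y)⁻¹ = (tor chevF4 y * xG ax f4p1 (φ t) * (tor chevF4 y)⁻¹) *
      (tor chevF4 y * xG ax f4p4 t * (tor chevF4 y)⁻¹) := by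
    simp only [xa]
    group
  rw [e, tor_conj_xG ax hF _ (by decide), tor_conj_xG ax hF _ (by decide), show f4p1 = 33 from rfl, show f4p4 = 24 from rfl,
    chi_coef _ 33 1 0 0 0 (by decide +kernel), chi_coef _ 24 0 0 0 1 (by decide +kernel), h0, h3]
  simp [xa, f4p1, f4p4, φu_coe, map_mul]

include hφ2 in
lemma tor_al (y : ℕ → Kˣ) (l : Kˣ) (h1 : y 1 = φu φ l) (h2 : y 2 = l) (t u : K) :
    tor chevF4 y * al ax φ t u * (tor chevF4 y)⁻¹ = al ax φ (l * t) (φ l * l * u) := by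
  refine α_conj ax bt_pos btx_pos φ hφ2 l (fun t => ?_) (fun t => ?_) (fun t => ?_) (fun t => ?_) t u
  · rw [tor_conj_xG ax hF _ (by decide), show f4b = 25 from rfl, chi_coef _ 25 0 0 1 0 (by decide +kernel), h2]
    simp
  · rw [tor_conj_xG ax hF _ (by decide), show f4a = 27 from rfl, chi_coef _ 27 0 1 0 0 (by decide +kernel), h1]
    simp [φu_coe]
  · rw [tor_conj_xG ax hF _ (by decide), show f4ab = 28 from rfl, chi_coef _ 28 0 1 1 0 (by decide +kernel), h1, h2]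
    simp [φu_coe]
  · rw [tor_conj_xG ax hF _ (by decide), show f4aab = 30 from rfl, chi_coef _ 30 0 2 1 0 (by decide +kernel), h1, h2]
    simp [φu_coe]


/-- The torus element. -/
noncomputable def tu (φ : K →+* K) (s : Kˣ) : GL chevF4.Idx K :=
  tor chevF4 (psi chevF4 (vec4 (φu φ s) 1 1 s))

lemma psi_tu (s : Kˣ) : psi chevF4 (vec4 (φu φ s) 1 1 s) 0 = φu φ (s ^ 2) ∧
    psi chevF4 (vec4 (φu φ s) 1 1 s) 1 = φu φ s⁻¹ ∧ psi chevF4 (vec4 (φu φ s) 1 1 s) 2 = s⁻¹ ∧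
    psi chevF4 (vec4 (φu φ s) 1 1 s) 3 = s ^ 2 := by
  obtain ⟨h0, h1, h2, h3⟩ := psi_F4 (vec4 (φu φ s) 1 1 s)
  refine ⟨?_, ?_, ?_, ?_⟩
  · rw [h0]; simp [vec4]
  · rw [h1]; simp [vec4]
  · rw [h2]; simp [vec4]
  · rw [h3]; simp [vec4]

include hφ2 in
lemma tu_al (s : Kˣ) (t u : K) : (tu φ s) * al ax φ t u * (tu φ s)⁻¹ = al ax φ ((s⁻¹ : Kˣ) * t) (φ ((s⁻¹ : Kˣ) : K) * (s⁻¹ : Kˣ) * u) :=
  tor_al φ hφ2 ax _ _ (psi_tu φ s).2.1 (psi_tu φ s).2.2.1 t u

lemma tu_inv (s : Kˣ) : (tu φ s)⁻¹ = tu φ s⁻¹ := by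
  rw [tu, tu, ← tor_inv', ← psi_inv]
  congr 1

/-- The torus element as a product. -/
lemma tu_eq (s : Kˣ) : tu φ s = xa ax φ s * xam ax φ (s⁻¹ : Kˣ) * xa ax φ s * (xa ax φ 1 * xam ax φ 1 * xa ax φ 1) := by
  have h1 : hG ax 33 (φ (s : K)) * hG ax 24 (s : K) = (nG ax 33 (φ (s : K)) * nG ax 24 (s : K)) * (nG ax 33 (-1) * nG ax 24 (-1)) :=
    hG_pair (by decide +kernel) (by decide +kernel) (by decide +kernel) (by decide +kernel) _ _
  have n33 : chevF4.neg 33 = 14 := by decide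
  have n24 : chevF4.neg 24 = 23 := by decide
  have h2 : ∀ a b : K, nG ax 33 a * nG ax 24 b = (xG ax 33 a * xG ax 24 b) * (xG ax (chevF4.neg 33) (-a⁻¹) * xG ax (chevF4.neg 24) (-b⁻¹)) *
      (xG ax 33 a * xG ax 24 b) := fun a b => nG_pair' (by decide +kernel) (by decide +kernel) (by decide +kernel) a b
  have e0 : tu φ s = hG ax 33 (φ (s : K)) * hG ax 24 (s : K) := by
    have e3 := hG_vec ax (r := 33) (by decide) (φu φ s) 1 0 0 0 (by decide +kernel)
    have e4 := hG_vec ax (r := 24) (by decide) s 0 0 0 1 (by decide +kernel)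
    rw [φu_coe] at e3
    rw [e3, e4, ← tor_mul, ← psi_mul, tu]
    congr 1
    apply psi_congr
    intro i hi
    interval_cases i <;> simp [vec4]
  rw [e0, h1, h2, h2, n33, n24]
  simp only [xa, xam, f4p1, f4p4, f4m1, f4m4, neg_eq, inv_inv, map_one, inv_one, Units.val_inv_eq_inv_val, map_inv₀]

end Cls

section Main

variable {e : ℕ} (φ : K →+* K) (hφ : ∀ t, φ t = t ^ e) (hφ2 : ∀ t, (φ (φ t)) ^ 2 = t) (ax : Ax chevF4 K)
variable (X : Subgroup (GL chevF4.Idx K))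

/-- The additive group of the first class in `X`. -/
def Aa (ax : Ax chevF4 K) (φ : K →+* K) (X : Subgroup (GL chevF4.Idx K)) : AddSubgroup K where
  carrier := {t | xa ax φ t ∈ X}
  zero_mem' := by
    show xa ax φ 0 ∈ X
    rw [xa_zero]
    exact X.one_mem
  add_mem' := by
    intro a b h h'
    show xa ax φ (a + b) ∈ X
    rw [xa_add]
    exact X.mul_mem h h'
  neg_mem' := by
    intro a h
    show xa ax φ (-a) ∈ X
    rw [neg_eq]
    exact h

/-- The coordinates `t` of the second class in `X`. -/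
def At (ax : Ax chevF4 K) (φ : K →+* K) (hφ2 : ∀ t, (φ (φ t)) ^ 2 = t) (X : Subgroup (GL chevF4.Idx K)) : AddSubgroup K where
  carrier := {t | ∃ u, al ax φ t u ∈ X}
  zero_mem' := ⟨0, by rw [al_zero φ hφ2]; exact X.one_mem⟩
  add_mem' := by
    rintro a b ⟨u, h⟩ ⟨u', h'⟩
    have := X.mul_mem h h'
    rw [al_mul φ hφ2] at this
    exact ⟨_, this⟩
  neg_mem' := by
    rintro a ⟨u, h⟩
    rw [neg_eq]
    exact ⟨u, h⟩

/-- The coordinates `u` of the second class in `X`. -/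
def Au (ax : Ax chevF4 K) (φ : K →+* K) (hφ2 : ∀ t, (φ (φ t)) ^ 2 = t) (X : Subgroup (GL chevF4.Idx K)) : AddSubgroup K where
  carrier := {u | al ax φ 0 u ∈ X}
  zero_mem' := by
    show al ax φ 0 0 ∈ X
    rw [al_zero φ hφ2]
    exact X.one_mem
  add_mem' := by
    intro a b h h'
    have := X.mul_mem h h'
    rw [al_mul φ hφ2] at this
    simpa using this
  neg_mem' := by
    intro a h
    show al ax φ 0 (-a) ∈ X
    rw [neg_eq]
    exact h

include hφ2

/-- From the torus elements and one element of the second class to the class. -/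
theorem al_all (htu : ∀ s : Kˣ, tu φ s ∈ X) {t₀ u₀ : K} (h₀ : al ax φ t₀ u₀ ∈ X) (ht₀ : t₀ ≠ 0) (t u : K) : al ax φ t u ∈ X := by
  have conj : ∀ {a b : K} (s : Kˣ), al ax φ a b ∈ X → al ax φ ((s⁻¹ : Kˣ) * a) (φ ((s⁻¹ : Kˣ) : K) * (s⁻¹ : Kˣ) * b) ∈ X := by
    intro a b s h
    rw [← tu_al φ hφ2 ax]
    exact X.mul_mem (X.mul_mem (htu s) h) (X.inv_mem (htu s))
  have hAt : ∀ t, t ∈ At ax φ hφ2 X := by
    intro t
    refine top_of_stable _ ?_ (⟨u₀, h₀⟩ : t₀ ∈ At ax φ hφ2 X) ht₀ t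
    rintro x ⟨v, hv⟩ l
    have := conj (l⁻¹) hv
    rw [inv_inv] at this
    exact ⟨_, this⟩
  obtain ⟨w, hw⟩ := hAt 1
  have hsq := X.mul_mem hw hw
  rw [al_mul φ hφ2, add_self', add_self', zero_add, map_one, mul_one] at hsq
  have hAu : ∀ u, u ∈ Au ax φ hφ2 X := by
    intro u
    refine top_of_stable _ ?_ (show (1 : K) ∈ Au ax φ hφ2 X from hsq) one_ne_zero u
    intro x hx l
    -- `l = φ m * m` for `m = l² (φ l)⁻²`
    set f := φu φ with hf
    set m : Kˣ := l ^ 2 * (f l)⁻¹ ^ 2 with hm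
    have hm' : φ (m : K) * m = l := by
      have h1 : φ (φ (l : K)) ^ 2 = l := hφ2 l
      have h0 : φ (l : K) ≠ 0 := by
        simp
      have h2 : (m : K) = (l : K) ^ 2 * (φ (l : K))⁻¹ ^ 2 := by
        simp [hm, hf, φu_coe]
      rw [h2]
      simp only [map_mul, map_pow, map_inv₀]
      rw [inv_pow (φ (φ (l : K))), h1]
      have hl := l.ne_zero
      field_simp
    have := conj (m⁻¹) (show al ax φ 0 x ∈ X from hx)
    rw [inv_inv, hm', mul_zero] at this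
    exact this
  obtain ⟨v, hv⟩ := hAt t
  have h1 := X.mul_mem hv (hAu (u + v))
  rw [al_mul φ hφ2] at h1
  have e1 : v + (u + v) + φ t * 0 = u := by
    rw [mul_zero, add_zero, add_comm u v, ← add_assoc, add_self', zero_add]
  rwa [add_zero, e1] at h1

/-- The parameter of the torus element acting trivially on the second class. -/
noncomputable def wg (φ : K →+* K) (g : Kˣ) : Kˣ := g ^ 3 * (φu φ g) ^ 4

/-- The torus element acting trivially on the second class. -/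
noncomputable def hg (φ : K →+* K) (g : Kˣ) : GL chevF4.Idx K :=
  tor chevF4 (psi chevF4 (vec4 (φu φ (wg φ g ^ 2 * (φu φ (wg φ g))⁻¹ ^ 2)) (φu φ (wg φ g)) (wg φ g)
    (wg φ g ^ 2 * (φu φ (wg φ g))⁻¹ ^ 2)))

omit [CharP K 2] in
lemma hg_vals (g : Kˣ) :
    psi chevF4 (vec4 (φu φ (wg φ g ^ 2 * (φu φ (wg φ g))⁻¹ ^ 2)) (φu φ (wg φ g)) (wg φ g)
      (wg φ g ^ 2 * (φu φ (wg φ g))⁻¹ ^ 2)) 0 = φu φ g ∧
    psi chevF4 (vec4 (φu φ (wg φ g ^ 2 * (φu φ (wg φ g))⁻¹ ^ 2)) (φu φ (wg φ g)) (wg φ g)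
      (wg φ g ^ 2 * (φu φ (wg φ g))⁻¹ ^ 2)) 1 = 1 ∧
    psi chevF4 (vec4 (φu φ (wg φ g ^ 2 * (φu φ (wg φ g))⁻¹ ^ 2)) (φu φ (wg φ g)) (wg φ g)
      (wg φ g ^ 2 * (φu φ (wg φ g))⁻¹ ^ 2)) 2 = 1 ∧
    psi chevF4 (vec4 (φu φ (wg φ g ^ 2 * (φu φ (wg φ g))⁻¹ ^ 2)) (φu φ (wg φ g)) (wg φ g)
      (wg φ g ^ 2 * (φu φ (wg φ g))⁻¹ ^ 2)) 3 = g := by
  have hφφ : ∀ u : Kˣ, (φu φ (φu φ u)) ^ 2 = u := fun u => Units.ext (by
    rw [Units.val_pow_eq_pow_val]
    exact hφ2 u)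
  obtain ⟨h0, h1, h2, h3⟩ := psi_F4 (vec4 (φu φ (wg φ g ^ 2 * (φu φ (wg φ g))⁻¹ ^ 2)) (φu φ (wg φ g)) (wg φ g)
      (wg φ g ^ 2 * (φu φ (wg φ g))⁻¹ ^ 2))
  set w := wg φ g with hw
  set v := φu φ w with hv
  have hfv : φu φ v ^ 2 = w := hφφ w
  have ha : φu φ (w ^ 2 * v⁻¹ ^ 2) = v ^ 2 * w⁻¹ := by
    rw [map_mul, map_pow, map_pow, map_inv, inv_pow, hfv, ← hv]
  have hg' : φu φ (φu φ g) ^ 2 = g := hφφ g
  have hv' : v = (φu φ g) ^ 3 * g ^ 2 := by
    rw [hv, hw, wg, map_mul, map_pow, map_pow]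
    congr 1
    rw [show (4 : ℕ) = 2 * 2 from rfl, pow_mul, hg']
  refine ⟨?_, ?_, ?_, ?_⟩
  · rw [h0]
    simp only [vec4, ha]
    rw [hv', hw, wg]
    apply Additive.ofMul.injective
    simp only [ofMul_mul, ofMul_pow, ofMul_inv]
    abel
  · rw [h1]
    simp only [vec4, ha]
    apply Additive.ofMul.injective
    simp only [ofMul_mul, ofMul_pow, ofMul_inv, ofMul_one]
    abel
  · rw [h2]
    simp only [vec4]
    apply Additive.ofMul.injective
    simp only [ofMul_mul, ofMul_pow, ofMul_inv, ofMul_one]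
    abel
  · rw [h3]
    simp only [vec4]
    rw [hv', hw, wg]
    apply Additive.ofMul.injective
    simp only [ofMul_mul, ofMul_pow, ofMul_inv]
    abel

lemma hg_al (g : Kˣ) (t u : K) : hg φ g * al ax φ t u * (hg φ g)⁻¹ = al ax φ t u := by
  have h1 := tor_al φ hφ2 ax (psi chevF4 (vec4 (φu φ (wg φ g ^ 2 * (φu φ (wg φ g))⁻¹ ^ 2)) (φu φ (wg φ g)) (wg φ g)
      (wg φ g ^ 2 * (φu φ (wg φ g))⁻¹ ^ 2))) (1 : Kˣ) (by rw [map_one]; exact (hg_vals φ hφ2 g).2.1) (hg_vals φ hφ2 g).2.2.1 t u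
  have e0 : φ ((1 : Kˣ) : K) * ((1 : Kˣ) : K) * u = u := by simp
  have e1 : ((1 : Kˣ) : K) * t = t := by simp
  rw [e0, e1] at h1
  exact h1

lemma hg_xa (g : Kˣ) (t : K) : hg φ g * xa ax φ t * (hg φ g)⁻¹ = xa ax φ (g * t) :=
  tor_xa φ ax _ g (hg_vals φ hφ2 g).1 (hg_vals φ hφ2 g).2.2.2 t

lemma al_comm_xam (t u v : K) : al ax φ t u * xam ax φ v = xam ax φ v * al ax φ t u := by
  have c1 : ∀ (r : ℕ), CommPair chevF4 f4m1 r → CommPair chevF4 f4m4 r → ∀ a : K, Commute (xG ax r a) (xam ax φ v) := by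
    intro r h1 h2 a
    unfold xam
    exact Commute.mul_right (h1.comm ax _ a) (h2.comm ax _ a)
  have h27 := c1 f4a (by decide +kernel) (by decide +kernel) (φ t)
  have h25 := c1 f4b (by decide +kernel) (by decide +kernel) t
  have h28 := c1 f4ab (by decide +kernel) (by decide +kernel) (φ t * t + u)
  have h30 := c1 f4aab (by decide +kernel) (by decide +kernel) ((φ u) ^ 2)
  exact ((h27.mul_left h25).mul_left h28).mul_left h30

/-- All of the argument, from the two generators. -/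
theorem le_X [Finite K] (hφ : ∀ t, φ t = t ^ e) {g l : Kˣ} (hgen : ∀ x : Kˣ, x ∈ Subgroup.zpowers g) (hl : (l : K) ≠ 1)
    (h1 : hg φ g ∈ X) (h2 : N₀ ax * al ax φ 1 0 * xa ax φ 1 ∈ X) : twistedF4 K e ≤ X := by
  set h := hg φ g with hh
  set y := al ax φ 1 0 with hy
  set x := xa ax φ 1 with hx
  set N := N₀ ax with hN
  have hg1 : (g : K) ≠ 1 := by
    intro e1
    have e2 : g = 1 := Units.ext e1
    obtain ⟨k, rfl⟩ := hgen l
    apply hl
    simp [e2]
  -- the first class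
  have hxa : ∀ t, xa ax φ t ∈ X := by
    have hw : xa ax φ ((g : K) + (g : K) * (g : K)) ∈ X := by
      have e1 := word_id N h x y (by rw [hh, hg]; exact N₀_inv_tor ax _ _ _ _) (by
        have := hg_al φ hφ2 ax g 1 0
        rw [← hh, ← hy] at this
        calc h * y = h * y * h⁻¹ * h := by group
          _ = y * h := by rw [this])
      have e2 : h * x * h⁻¹ = xa ax φ g := by
        rw [hh, hx, hg_xa φ hφ2 ax, mul_one]
      have e3 : h * h * x * (h * h)⁻¹ = xa ax φ ((g : K) * (g : K)) := by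
        have : h * h * x * (h * h)⁻¹ = h * (h * x * h⁻¹) * h⁻¹ := by group
        rw [this, e2, hh, hg_xa φ hφ2 ax]
      rw [e2, e3, xa_inv, ← xa_add] at e1
      rw [← e1]
      exact X.mul_mem (X.mul_mem (X.mul_mem (X.mul_mem h1 (X.inv_mem h2)) (X.inv_mem h1)) h2) (X.inv_mem (X.mul_mem h1 h1))
    have hne : (g : K) + (g : K) * (g : K) ≠ 0 := by
      intro e1
      have e2 : (g : K) * ((g : K) - 1) = 0 := by
        have := add_self' (g : K)
        linear_combination e1 - this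
      rcases mul_eq_zero.mp e2 with e3 | e3
      · exact g.ne_zero e3
      · exact hg1 (sub_eq_zero.mp e3)
    intro t
    refine top_of_stable (Aa ax φ X) ?_ hw hne t
    intro a ha v
    have hv : v ∈ Submonoid.powers g := mem_powers_iff_mem_zpowers.mpr (hgen v)
    obtain ⟨n, rfl⟩ := hv
    induction n with
    | zero => simpa using ha
    | succ n ih =>
      have e1 := hg_xa φ hφ2 ax g (((g ^ n : Kˣ) : K) * a)
      have e2 : xa ax φ ((g : K) * (((g ^ n : Kˣ) : K) * a)) ∈ X := by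
        rw [← e1]
        exact X.mul_mem (X.mul_mem h1 ih) (X.inv_mem h1)
      have e3 : ((g ^ (n + 1) : Kˣ) : K) * a = (g : K) * (((g ^ n : Kˣ) : K) * a) := by
        rw [pow_succ']
        simp only [Units.val_mul]
        ring
      rw [e3]
      exact e2
  -- the element `a'`
  have ha' : N * y ∈ X := by
    have e : N * y = N * y * x * x⁻¹ := by group
    rw [e]
    exact X.mul_mem h2 (X.inv_mem (hxa 1))
  -- the opposite of the first class
  have hxam : ∀ t, xam ax φ t ∈ X := by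
    intro t
    have h3 := X.mul_mem (X.mul_mem (X.inv_mem ha') (hxa t)) ha'
    have e1 : (N * y)⁻¹ * xa ax φ t * (N * y) = y⁻¹ * (N⁻¹ * xa ax φ t * N) * y := by group
    rw [e1, hN, N₀_xa, mul_assoc, hy, ← al_comm_xam φ hφ2 ax] at h3
    simpa using h3
  -- the torus elements
  have htu : ∀ s : Kˣ, tu φ s ∈ X := by
    intro s
    rw [tu_eq φ ax]
    exact X.mul_mem (X.mul_mem (X.mul_mem (hxa _) (hxam _)) (hxa _)) (X.mul_mem (X.mul_mem (hxa _) (hxam _)) (hxa _))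
  -- the second class
  have hal : ∀ t u, al ax φ t u ∈ X := by
    have e0 : N⁻¹ * tu φ l * N = (tu φ l)⁻¹ := by
      have e1 := N₀_inv_tor ax (φu φ l) 1 1 l
      rw [← hN] at e1
      have e2 : tor chevF4 (psi chevF4 (vec4 (φu φ l) 1 1 l)) = tu φ l := rfl
      rw [e2] at e1
      have e3 : (N⁻¹ * (tu φ l)⁻¹ * N)⁻¹ = (tu φ l)⁻¹ := by rw [e1]
      rw [← e3]
      group
    have h3 : y⁻¹ * al ax φ l 0 ∈ X := by
      have h4 := X.mul_mem (X.inv_mem ha') (X.mul_mem (X.mul_mem (htu l) ha') (htu l))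
      have e1 : (N * y)⁻¹ * (tu φ l * (N * y) * tu φ l) = y⁻¹ * (N⁻¹ * tu φ l * N) * y * tu φ l := by group
      rw [e1, e0] at h4
      have e2 : (tu φ l)⁻¹ * y * tu φ l = al ax φ l 0 := by
        have e3 := tu_al φ hφ2 ax l⁻¹ 1 0
        rw [tu_inv, inv_inv] at e3
        simp only [inv_inv, mul_one, mul_zero] at e3
        rw [← tu_inv] at e3
        simpa using e3
      have e4 : y⁻¹ * (tu φ l)⁻¹ * y * tu φ l = y⁻¹ * ((tu φ l)⁻¹ * y * tu φ l) := by group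
      rw [e4, e2] at h4
      exact h4
    rw [hy, al_inv φ hφ2, al_mul φ hφ2] at h3
    refine al_all φ hφ2 ax X htu h3 ?_
    intro e1
    apply hl
    have := add_self' (1 : K)
    linear_combination e1 - this
  -- the longest element
  have hN' : N ∈ X := by
    have := X.mul_mem ha' (X.inv_mem (hal 1 0))
    rw [← hy] at this
    simpa using this
  have halm : ∀ t u, alm ax φ t u ∈ X := by
    intro t u
    rw [← N₀_al, ← hN]
    exact X.mul_mem (X.mul_mem hN' (hal t u)) (X.inv_mem hN')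
  -- the representatives
  have hn0 : nF ax 0 ∈ X := by
    have e33 : chevF4.simple 0 = 33 := by decide
    have e24 : chevF4.simple 3 = 24 := by decide
    have h5 := nG_pair ax (p := 33) (q := 24) (by decide +kernel) (by decide +kernel) (by decide +kernel)
    have n33 : chevF4.neg 33 = 14 := by decide
    have n24 : chevF4.neg 24 = 23 := by decide
    rw [n33, n24, neg_eq] at h5
    have e1 : nw chevF4 ax [0, 3] = nG ax 33 1 * nG ax 24 1 := by
      simp only [nw, List.map_cons, List.map_nil, List.prod_cons, List.prod_nil, mul_one, sG, e33, e24]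
    show nw chevF4 ax [0, 3] ∈ X
    rw [e1, h5]
    have h6 := X.mul_mem (X.mul_mem (hxa 1) (hxam 1)) (hxa 1)
    simpa only [xa, xam, map_one, f4p1, f4p4, f4m1, f4m4] using h6
  have hn1 : nF ax 1 ∈ X := by
    show nw chevF4 ax [1, 2, 1, 2] ∈ X
    rw [n₁_eq ax]
    have h6 := X.mul_mem (X.mul_mem (hal 1 0) (halm 0 1)) (hal 1 1)
    simp only [al, alm, αV, map_one, map_zero, mul_one, add_zero, zero_mul, zero_add, one_pow] at h6
    have e0 : (0 : K) ^ 2 = 0 := by simp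
    rw [e0, add_self'] at h6
    exact h6
  have hn : ∀ j, nF ax j ∈ X := by
    intro j
    fin_cases j
    · exact hn0
    · exact hn1
  -- the classes
  have hcl : ∀ j, ∀ z ∈ fixCl (twF φ ax) (Psi chevF4 (· ∈ Cf.cls j)), z ∈ X := by
    intro j z hz
    obtain ⟨hz1, hz2, hz3⟩ := hz
    fin_cases j
    · obtain ⟨t, rfl⟩ := cl_pair φ ax hz1 hz3
      exact hxa t
    · obtain ⟨t, u, rfl⟩ := cl_B φ hφ2 ax hz1 hz3
      exact hal t u
  have hform : ∀ (L : List (Fin 2)) (u : GL chevF4.Idx K), Form (TF φ hφ hφ2 ax) L u → u ∈ X := by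
    intro L
    induction L with
    | nil =>
      intro u hu
      have : u = 1 := hu
      rw [this]
      exact X.one_mem
    | cons j L ih =>
      rintro u ⟨z, hz, w, hw, rfl⟩
      have e1 : (TF φ hφ hφ2 ax).n j = nF ax j := rfl
      rw [e1]
      exact X.mul_mem (hcl j z hz) (X.mul_mem (X.mul_mem (hn j) (ih w hw)) (X.inv_mem (hn j)))
  have hU : ∀ u ∈ chevF4.posUnipotent K ⊓ twistedF4 K e, u ∈ X := by
    intro u hu
    exact hform _ u (form_of_tables Cf hF2 (factsF φ ax) (nF ax) (G1_le φ hφ hφ2 ax) (n_mem φ hφ ax) (n_mono ax)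
      (n_nor ax) (cl φ hφ hφ2 ax) (x_ne φ hφ ax) (gen ax) chainCf hu)
  have hT0 : (TF φ hφ hφ2 ax).n₀ = N := prodN_eq ax Cf.L₀
  have hV : ∀ u ∈ chevF4.negUnipotent K ⊓ twistedF4 K e, u ∈ X := by
    intro u hu
    have h3 := (TF φ hφ hφ2 ax).n₀_conj_V hF2 hu.1
    have h4 := (TF φ hφ hφ2 ax).n₀_mem
    have h5 := hU _ ⟨h3, Subgroup.mul_mem _ (Subgroup.mul_mem _ (Subgroup.inv_mem _ h4) hu.2) h4⟩
    rw [hT0] at h5
    have e1 : u = N * (N⁻¹ * u * N) * N⁻¹ := by group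
    rw [e1]
    exact X.mul_mem (X.mul_mem hN' h5) (X.inv_mem hN')
  refine (gen ax).trans (sup_le ?_ ?_)
  · exact hU
  · exact hV

end Main

section Final

variable {K : Type*} [Field K] [Fintype K] {m : ℕ}

theorem two_gen (hm : 1 ≤ m) (hK : Fintype.card K = 2 ^ (2 * m + 1)) :
    ∃ a b : ↥(twistedF4 K (2 ^ m)), Subgroup.closure ({a, b} : Set ↥(twistedF4 K (2 ^ m))) = ⊤ := by
  classical
  have := charP_of_card hK
  obtain ⟨φ, hφ, hφ2⟩ := exists_φ hK
  have ax : Ax chevF4 K := Cfsg.Agent.Lib.Lie.AxOf.ax_of_mem hmemF4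
  have h8 : 8 ≤ Fintype.card K := by
    rw [hK]
    calc 8 = 2 ^ 3 := by norm_num
      _ ≤ 2 ^ (2 * m + 1) := Nat.pow_le_pow_right (by norm_num) (by omega)
  have hU : 1 < Fintype.card Kˣ := by
    rw [Fintype.card_units]
    omega
  have : Nontrivial Kˣ := Fintype.one_lt_card_iff_nontrivial.mp hU
  obtain ⟨l, hl⟩ := exists_ne (1 : Kˣ)
  obtain ⟨g, hgen⟩ := IsCyclic.exists_generator (α := Kˣ)
  have m1 : hg φ g ∈ twistedF4 K (2 ^ m) := mem_param φ hφ hφ2 ax _ _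
  have hT0 : (TF φ hφ hφ2 ax).n₀ = N₀ ax := prodN_eq ax Cf.L₀
  have m2 : N₀ ax * al ax φ 1 0 * xa ax φ 1 ∈ twistedF4 K (2 ^ m) := by
    refine Subgroup.mul_mem _ (Subgroup.mul_mem _ ?_ ?_) ?_
    · rw [← hT0]
      exact (TF φ hφ hφ2 ax).n₀_mem
    · exact mem_α ax φ hφ (Or.inl ⟨rfl, rfl, rfl, rfl⟩) 1 0
    · exact mem_pair ax φ hφ (Or.inl ⟨rfl, rfl⟩) 1
  refine ⟨⟨_, m1⟩, ⟨_, m2⟩, ?_⟩
  set S := Subgroup.closure ({⟨_, m1⟩, ⟨_, m2⟩} : Set ↥(twistedF4 K (2 ^ m))) with hS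
  have hle := le_X φ hφ2 ax (e := 2 ^ m) (S.map (twistedF4 K (2 ^ m)).subtype) hφ hgen (l := l) (fun e1 => hl (Units.ext e1))
    ⟨⟨_, m1⟩, Subgroup.subset_closure (by simp), rfl⟩ ⟨⟨_, m2⟩, Subgroup.subset_closure (by simp), rfl⟩
  rw [eq_top_iff]
  intro y _
  obtain ⟨z, hz, e⟩ := hle y.2
  have : z = y := Subtype.ext e
  rwa [← this]

end Final

end Cfsg.Agent.Lib.F24.Gen2
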