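import Cfsg.Agent.Lib.F24.Tw
import Cfsg.Agent.Lib.F24.B2Data
import Cfsg.Agent.Lib.BNPair.Simple
import Cfsg.Agent.Lib.Chev.Simple

/-!
# The exceptional graph automorphisms of `B₂` and `F₄` in characteristic two
-/

set_option autoImplicit false
set_option linter.unusedSectionVars false
set_option linter.unusedVariables false
set_option linter.ambiguousOpen false

namespace Cfsg.Agent.Lib.F24.GraphAut

open scoped MatrixGroups Matrix
open Cfsg _root_.Cfsg.Lie ChevalleyDatum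
open Cfsg.Agent.Lib.Chev
open Tables Tables2 Tables3 Tables4 Raise Basic AxBasic Torus Products Products2 Mono1 Mono2 Mono3 Bn ChevSimple
open Cfsg.Agent.Lib.Twisted.Fact Cfsg.Agent.Lib.Twisted.Bruhat Cfsg.Agent.Lib.Twisted.Tw
open Cfsg.Agent.Lib.F24.Blocks Cfsg.Agent.Lib.F24.Tw

section Dichotomy

variable {G : Type*} [Group G] (P : Cfsg.BNPair G)

open Cfsg.Agent.Lib.BNPair.Basic Cfsg.Agent.Lib.BNPair.Simple in
/-- A normal subgroup of a group with an irreducible `(B, N)`-pair and core-free `B`. -/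
theorem normal_dichotomy (hirr : P.Irreducible) (hcore : P.B.normalCore = ⊥) (K : Subgroup G) [hK : K.Normal] :
    K = ⊥ ∨ K ⊔ P.B = ⊤ := by
  set M := K ⊔ P.B with hM
  have hBM : P.B ≤ M := le_sup_right
  set X : Set G := {s | s ∈ P.S ∧ s ∈ M} with hX
  have hXS : X ⊆ P.S := fun s hs => hs.1
  have heq : M = P.parabolic X := eq_parabolic hBM
  have hcases : X = ∅ ∨ P.S \ X = ∅ := by
    by_contra hcon
    push Not at hcon
    obtain ⟨h1, h2⟩ := hcon
    obtain ⟨s, hs, s', hs', hnot⟩ := hirr X hXS h1 h2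
    apply hnot
    refine comm_of_normal hs.1 hs'.1 hs.2 ?_
    intro hmem
    exact hs'.2 ⟨hs'.1, hmem⟩
  rcases hcases with h | h
  · left
    rw [h, parabolic_empty] at heq
    have hKB : K ≤ P.B := by
      rw [← heq]
      exact le_sup_left
    have := Subgroup.normal_le_normalCore.mpr hKB
    rw [hcore] at this
    exact le_bot_iff.mp this
  · right
    have hXe : X = P.S := Set.Subset.antisymm hXS (Set.sdiff_eq_empty.mp h)
    rw [hXe, parabolic_S_eq_top] at heq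
    exact heq

end Dichotomy

variable {D : ChevalleyDatum} {K : Type*} [Field K]

section Chev

variable (h : Tab D) (h2 : Tab2 D) (ax : Ax D K) (h4 : Tab4 D)

include h h2 ax h4

/-- The `(B, N)`-pair of a Chevalley group is irreducible. -/
theorem irr_chev : (bnPair h h2 ax).Irreducible := by
  set P := bnPair h h2 ax with hPdef
  intro J hJ hne hne'
  have hP : ∀ i, i < D.rank → ∃ n : ↥(D.group K), (n : GL D.Idx K) = sG ax i ∧ n ∈ P.S := by
    intro i hi
    have hm := monomial_le_group h ax (sG_mem_monomial h h2 ax hi)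
    exact ⟨⟨sG ax i, hm⟩, rfl, i, hi, sG_val ax i⟩
  obtain ⟨x, hx⟩ := hne
  obtain ⟨x', hx'⟩ := hne'
  obtain ⟨i0, hi0, hx0⟩ := hJ hx
  obtain ⟨j0, hj0, hx0'⟩ := hx'.1
  set Q : ℕ → Prop := fun i => ∃ n : ↥(D.group K), (n : GL D.Idx K) = sG ax i ∧ n ∈ J with hQ
  have hQ1 : Q i0 := ⟨x, eq_sG_of_mem h h2 ax hx0, hx⟩
  have hQ2 : ¬ Q j0 := by
    rintro ⟨n, hn, hnJ⟩
    apply hx'.2
    have : n = x' := by
      apply Subtype.ext
      rw [hn, eq_sG_of_mem h h2 ax hx0']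
    rwa [← this]
  obtain ⟨i, j, hi, hj, hQi, hQj, k, hk, hadj⟩ := h4.conn Q ⟨i0, hi0, hQ1⟩ ⟨j0, hj0, hQ2⟩
  obtain ⟨n, hn, hnJ⟩ := hQi
  obtain ⟨n', hn', hnS⟩ := hP j hj
  refine ⟨n, hnJ, n', ⟨hnS, ?_⟩, ?_⟩
  · intro hmem
    exact hQj ⟨n', hn', hmem⟩
  · -- the commutator moves a positive root to a negative root
    intro hB
    have hB' : sG ax i * sG ax j * (sG ax i)⁻¹ * (sG ax j)⁻¹ ∈ D.borelSubgroup K := by
      have := Subgroup.mem_subgroupOf.mp hB
      simpa [hn, hn'] using this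
    obtain ⟨c, hc⟩ := exists_isNor_sG h ax h2 (F := K) hi
    obtain ⟨c', hc'⟩ := exists_isNor_sG h ax h2 (F := K) hj
    have H := ((hc.mul h ax hc').mul h ax (hc.inv h ax)).mul h ax (hc'.inv h ax)
    have hsk := h.simple_lt k hk
    have h5 := pos_of_mem_borel h h2 ax hB' H ⟨D.simple k, hsk⟩ (simple_isPos h hk)
    apply hadj
    have hinv : ∀ {i : ℕ} (hi : i < D.rank), (wF h i hi)⁻¹ = wF h i hi := by
      intro i hi
      refine Equiv.ext fun s => ?_
      show (wF h i hi).symm s = _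
      rw [Equiv.symm_apply_eq]
      apply Fin.ext
      rw [wF_val, wF_val]
      exact (reflect_reflect h hi s.isLt).symm
    simp only [Equiv.Perm.coe_mul, Function.comp_apply, hinv] at h5
    simpa [wF_val, wWord] using h5

omit h4 in
include h4 in
/-- A matrix representation by coordinates whose highest line is fixed by `B` is faithful. -/
theorem line_inj (h3 : Tab3 D) {n : ℕ} (A : ↥(D.group K) →* Matrix (Fin n) (Fin n) K) (e : Fin n → D.Idx)
    (he : Function.Injective e)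
    (hA : ∀ g i j, A g i j = ((g : GL D.Idx K) : Matrix D.Idx D.Idx K) (e i) (e j)) (i0 : Fin n)
    (hpos : ∀ r : Fin D.nroots, D.IsPosRoot r → ∀ (t : K) (i : Fin n), i ≠ i0 → D.xMat K r t (e i) (e i0) = 0)
    (r0 : Fin D.nroots) (i1 : Fin n) (hne : i1 ≠ i0) (hval : D.xMat K r0 1 (e i1) (e i0) ≠ 0) :
    Function.Injective A := by
  have hQmul : ∀ (x y : ↥(D.group K)), (∀ i, i ≠ i0 → A x i i0 = 0) → (∀ i, i ≠ i0 → A y i i0 = 0) →
      ∀ i, i ≠ i0 → A (x * y) i i0 = 0 := by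
    intro x y hx hy i hi
    rw [map_mul, Matrix.mul_apply, Finset.sum_eq_single i0]
    · rw [hx i hi, zero_mul]
    · intro k _ hk
      rw [hy k hk, mul_zero]
    · intro hn
      exact absurd (Finset.mem_univ _) hn
  have hU : ∀ u ∈ D.posUnipotent K, ∃ hu : u ∈ D.group K, ∀ i, i ≠ i0 → A ⟨u, hu⟩ i i0 = 0 := by
    intro u hu
    rw [posUnipotent_eq ax] at hu
    refine rootClosure_induction ax (Q := fun u => ∃ hu : u ∈ D.group K, ∀ i, i ≠ i0 → A ⟨u, hu⟩ i i0 = 0)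
      ⟨Subgroup.one_mem _, fun i hi => ?_⟩ ?_ ?_ hu
    · have : A ⟨1, Subgroup.one_mem _⟩ = 1 := map_one A
      rw [this]
      exact Matrix.one_apply_ne hi
    · intro r t hr
      refine ⟨xG_mem_group ax hr.1 t, fun i hi => ?_⟩
      rw [hA]
      simp only [xG_val, x, dif_pos hr.1]
      exact hpos ⟨r, hr.1⟩ hr t i hi
    · rintro a b ⟨ha, h5⟩ ⟨hb, h6⟩
      exact ⟨Subgroup.mul_mem _ ha hb, hQmul ⟨a, ha⟩ ⟨b, hb⟩ h5 h6⟩
  have hH : ∀ a ∈ D.diagonalSubgroup K, ∀ ha : a ∈ D.group K, ∀ i, i ≠ i0 → A ⟨a, ha⟩ i i0 = 0 := by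
    intro a ha ha' i hi
    obtain ⟨y, rfl⟩ := exists_tor_of_mem ax h ha
    rw [hA]
    simp only [tor, diagG_val]
    exact Matrix.diagonal_apply_ne _ (fun hh => hi (he hh))
  rw [injective_iff_map_eq_one]
  intro g hg
  have hg' : g ∈ A.ker := hg
  rcases normal_dichotomy (bnPair h h2 ax) (irr_chev h h2 ax h4)
    (by exact Cfsg.Agent.Lib.Chev.ChevSimple.core_trivial h h2 ax h3) A.ker with h5 | h5
  · rw [h5] at hg'
    exact Subgroup.mem_bot.mp hg'
  · exfalso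
    have hy : xg ax r0 (1 : K) ∈ A.ker ⊔ (bnPair h h2 ax).B := by
      rw [h5]
      trivial
    obtain ⟨k, hk, b, hb, e'⟩ := Subgroup.mem_sup_of_normal_left.mp hy
    have e2 : A (xg ax r0 1) = A b := by
      rw [← e', map_mul, MonoidHom.mem_ker.mp hk, one_mul]
    have hb' : (b : GL D.Idx K) ∈ D.borelSubgroup K := Subgroup.mem_subgroupOf.mp hb
    obtain ⟨u, hu, a, ha, e3⟩ := (mem_borel_iff ax h).mp hb'
    obtain ⟨hu', h6⟩ := hU u hu
    have ha' : a ∈ D.group K := by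
      have : a = u⁻¹ * b := by rw [e3]; group
      rw [this]
      exact Subgroup.mul_mem _ (Subgroup.inv_mem _ hu') b.2
    have e4 : b = ⟨u, hu'⟩ * ⟨a, ha'⟩ := Subtype.ext e3
    have h7 := hQmul _ _ h6 (hH a ha ha') i1 hne
    rw [← e4, ← e2, hA, xg_val] at h7
    exact hval h7

end Chev

section Aut

variable {n N : ℕ} (T : BlockTab D 2 n N) [CharP K 2] (ax : Ax D K)

/-- The automorphism from a block table. -/
theorem aut_of_tab (hA : Function.Injective (T.gA ax)) (hB : Function.Injective (T.gB ax))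
    (hsurj : ∀ (r : Fin D.nroots) (s : K), ∃ t : K, t ^ T.mu r = s) :
    ∃ α : ↥(D.group K) ≃* ↥(D.group K), ∀ r t, α (xg ax r t) = xg ax (T.rho r) (t ^ T.mu r) := by
  set σ := T.sigma ax hA (RingHom.id K) with hσ
  have h1 : Function.Injective σ := by
    intro a b hab
    apply hB
    have h3 := T.gA_sigma ax hA (RingHom.id K) a
    have h4 := T.gA_sigma ax hA (RingHom.id K) b
    rw [← hσ, hab, h4] at h3
    ext i j
    have := congrFun (congrFun h3 i) j
    simp only [BlockTab.rep2_apply, RingHom.id_apply] at this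
    exact this.symm
  have h2 : Function.Surjective σ := by
    intro g
    induction g using group_induction ax with
    | h1 => exact ⟨1, map_one σ⟩
    | hx r t =>
      obtain ⟨s, hs⟩ := hsurj (T.rho.symm r) t
      refine ⟨xg ax (T.rho.symm r) s, ?_⟩
      rw [hσ, T.sigma_xg]
      simp only [BlockTab.tauR, RingHom.id_apply, hs, Equiv.apply_symm_apply]
    | hmul a b ha hb =>
      obtain ⟨a', ha⟩ := ha
      obtain ⟨b', hb⟩ := hb
      exact ⟨a' * b', by rw [map_mul, ha, hb]⟩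
    | hinv a ha =>
      obtain ⟨a', ha⟩ := ha
      exact ⟨a'⁻¹, by rw [map_inv, ha]⟩
  refine ⟨MulEquiv.ofBijective σ ⟨h1, h2⟩, fun r t => ?_⟩
  show σ (xg ax r t) = _
  rw [hσ, T.sigma_xg]
  simp only [BlockTab.tauR, RingHom.id_apply]

/-- The form of the statement. -/
theorem final_of_tab (L : List (ℕ × ℕ))
    (hα : ∃ α : ↥(D.group K) ≃* ↥(D.group K), ∀ r t, α (xg ax r t) = xg ax (T.rho r) (t ^ T.mu r))
    (hs : ∀ i, i < D.rank → ∃ (hr : D.simple i < D.nroots) (hn : D.neg (D.simple i) < D.nroots),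
      (T.rho ⟨D.simple i, hr⟩ : ℕ) = D.simple (L.getD i (0, 1)).1 ∧ T.mu (D.simple i) = (L.getD i (0, 1)).2 ∧
      (T.rho ⟨D.neg (D.simple i), hn⟩ : ℕ) = D.neg (D.simple (L.getD i (0, 1)).1) ∧
      T.mu (D.neg (D.simple i)) = (L.getD i (0, 1)).2) :
    ∃ α : ↥(D.group K) ≃* ↥(D.group K), ∀ (g : ↥(D.group K)) (i : ℕ) (t : K), i < D.rank →
      (((g : GL D.Idx K) : Matrix D.Idx D.Idx K) = D.x K (D.simple i) t →
        ((α g : GL D.Idx K) : Matrix D.Idx D.Idx K) = D.x K (D.simple (L.getD i (0, 1)).1) (t ^ (L.getD i (0, 1)).2)) ∧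
      (((g : GL D.Idx K) : Matrix D.Idx D.Idx K) = D.x K (D.neg (D.simple i)) t →
        ((α g : GL D.Idx K) : Matrix D.Idx D.Idx K) = D.x K (D.neg (D.simple (L.getD i (0, 1)).1)) (t ^ (L.getD i (0, 1)).2)) := by
  obtain ⟨α, hα⟩ := hα
  refine ⟨α, fun g i t hi => ?_⟩
  obtain ⟨hr, hn, h1, h2, h3, h4⟩ := hs i hi
  have key : ∀ (r : Fin D.nroots) (r' μ : ℕ), (T.rho r : ℕ) = r' → T.mu r = μ →
      ((g : GL D.Idx K) : Matrix D.Idx D.Idx K) = D.x K r t →
      ((α g : GL D.Idx K) : Matrix D.Idx D.Idx K) = D.x K r' (t ^ μ) := by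
    intro r r' μ h5 h6 h7
    have e1 : g = xg ax r t := by
      apply Subtype.ext
      apply Units.ext
      rw [h7, xg_val, x, dif_pos r.isLt]
    rw [e1, hα, xg_val, h6, ← h5, x, dif_pos (T.rho r).isLt]
  exact ⟨key ⟨D.simple i, hr⟩ _ _ h1 h2, key ⟨D.neg (D.simple i), hn⟩ _ _ h3 h4⟩

end Aut

/-! ### The two cases -/

section Cases

variable [CharP K 2]

theorem hmemB2 : chevB2 ∈ [chevG2, chevB2, chevD4, chevF4, chevE6, chevE7, chevE8] := by simp

set_option maxRecDepth 100000 in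
theorem b2A : ∀ (r : Fin chevB2.nroots), chevB2.IsPosRoot r → ∀ i : Fin 5, i ≠ 4 →
    (pol chevB2 r (B2Data.TB.e₁ i) (B2Data.TB.e₁ 4)).all (fun x => x.2 % ((2 : ℕ) : ℤ) == 0) = true := by
  decide +kernel

set_option maxRecDepth 100000 in
theorem b2B : ∀ (r : Fin chevB2.nroots), chevB2.IsPosRoot r → ∀ i : Fin 5, i ≠ 4 →
    (pol chevB2 r (B2Data.TB.e₂ i) (B2Data.TB.e₂ 4)).all (fun x => x.2 % ((2 : ℕ) : ℤ) == 0) = true := by
  decide +kernel

theorem b2A' : pol chevB2 ⟨1, by decide⟩ (B2Data.TB.e₁ 1) (B2Data.TB.e₁ 4) = [(2, -1)] := by decide +kernel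
theorem b2B' : pol chevB2 ⟨0, by decide⟩ (B2Data.TB.e₂ 1) (B2Data.TB.e₂ 4) = [(2, -1)] := by decide +kernel

set_option maxRecDepth 100000 in
theorem f4B : ∀ (r : Fin chevF4.nroots), chevF4.IsPosRoot r → ∀ i : Fin 26, i ≠ 25 →
    (pol chevF4 r (F4Data.TB.e₂ i) (F4Data.TB.e₂ 25)).all (fun x => x.2 % ((2 : ℕ) : ℤ) == 0) = true := by
  decide +kernel

theorem f4B' : pol chevF4 ⟨0, by decide⟩ (F4Data.TB.e₂ 2) (F4Data.TB.e₂ 25) = [(2, -1)] := by decide +kernel

set_option maxRecDepth 100000 in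
theorem f4L : ∀ i : Fin 4, (F4Data.rhoN (chevF4.simple i) = chevF4.simple (([(3, 2), (2, 2), (1, 1), (0, 1)] : List (ℕ × ℕ)).getD i (0, 1)).1) ∧
    F4Data.muN (chevF4.simple i) = (([(3, 2), (2, 2), (1, 1), (0, 1)] : List (ℕ × ℕ)).getD i (0, 1)).2 ∧
    F4Data.rhoN (chevF4.neg (chevF4.simple i)) = chevF4.neg (chevF4.simple (([(3, 2), (2, 2), (1, 1), (0, 1)] : List (ℕ × ℕ)).getD i (0, 1)).1) ∧
    F4Data.muN (chevF4.neg (chevF4.simple i)) = (([(3, 2), (2, 2), (1, 1), (0, 1)] : List (ℕ × ℕ)).getD i (0, 1)).2 := by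
  decide +kernel

set_option maxRecDepth 100000 in
theorem b2L : ∀ i : Fin 2, (B2Data.rhoN (chevB2.simple i) = chevB2.simple (([(1, 2), (0, 1)] : List (ℕ × ℕ)).getD i (0, 1)).1) ∧
    B2Data.muN (chevB2.simple i) = (([(1, 2), (0, 1)] : List (ℕ × ℕ)).getD i (0, 1)).2 ∧
    B2Data.rhoN (chevB2.neg (chevB2.simple i)) = chevB2.neg (chevB2.simple (([(1, 2), (0, 1)] : List (ℕ × ℕ)).getD i (0, 1)).1) ∧
    B2Data.muN (chevB2.neg (chevB2.simple i)) = (([(1, 2), (0, 1)] : List (ℕ × ℕ)).getD i (0, 1)).2 := by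
  decide +kernel

theorem mu_surj_b2 (hperf : ∀ x : K, ∃ y : K, y ^ 2 = x) (r : Fin chevB2.nroots) (s : K) : ∃ t : K, t ^ B2Data.TB.mu r = s := by
  show ∃ t : K, t ^ B2Data.muN r = s
  unfold B2Data.muN
  split_ifs
  · exact hperf s
  · exact ⟨s, pow_one s⟩

theorem mu_surj_f4 (hperf : ∀ x : K, ∃ y : K, y ^ 2 = x) (r : Fin chevF4.nroots) (s : K) : ∃ t : K, t ^ F4Data.TB.mu r = s := by
  show ∃ t : K, t ^ F4Data.muN r = s
  unfold F4Data.muN
  split_ifs
  · exact hperf s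
  · exact ⟨s, pow_one s⟩

lemma val_ne (ax : Ax chevB2 K) : (-1 : K) ≠ 0 := neg_ne_zero.mpr one_ne_zero

theorem main_thm (hperf : ∀ x : K, ∃ y : K, y ^ 2 = x)
    (p : ChevalleyDatum × List (ℕ × ℕ))
    (hp : p ∈ [(chevB2, [(1, 2), (0, 1)]), (chevF4, [(3, 2), (2, 2), (1, 1), (0, 1)])]) :
    ∃ α : ↥(p.1.group K) ≃* ↥(p.1.group K), ∀ (g : ↥(p.1.group K)) (i : ℕ) (t : K), i < p.1.rank →
      (((g : GL p.1.Idx K) : Matrix p.1.Idx p.1.Idx K) = p.1.x K (p.1.simple i) t →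
        ((α g : GL p.1.Idx K) : Matrix p.1.Idx p.1.Idx K) = p.1.x K (p.1.simple (p.2.getD i (0, 1)).1) (t ^ (p.2.getD i (0, 1)).2)) ∧
      (((g : GL p.1.Idx K) : Matrix p.1.Idx p.1.Idx K) = p.1.x K (p.1.neg (p.1.simple i)) t →
        ((α g : GL p.1.Idx K) : Matrix p.1.Idx p.1.Idx K) = p.1.x K (p.1.neg (p.1.simple (p.2.getD i (0, 1)).1)) (t ^ (p.2.getD i (0, 1)).2)) := by
  simp only [List.mem_cons, List.not_mem_nil, or_false] at hp
  rcases hp with rfl | rfl
  · have ax : Ax chevB2 K := Cfsg.Agent.Lib.Lie.AxOf.ax_of_mem hmemB2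
    have h := tab_of_mem hmemB2
    have h2 := tab2_of_mem hmemB2
    have h3 := tab3_of_mem hmemB2
    have h4 := tab4_of_mem hmemB2
    have hA : Function.Injective (B2Data.TB.gA (K := K) ax) := by
      refine line_inj h h2 ax h4 h3 _ _ B2Data.TB.e₁_inj (fun g i j => BlockTab.gA_apply _ ax g i j) 4 (fun r hr t i hi => ?_)
        ⟨1, by decide⟩ 1 (by decide) ?_
      · rw [xMat_entry]
        exact evalP_eq_zero (p := 2) t (b2A r hr i hi)
      · rw [xMat_entry, b2A']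
        simp
    have hB : Function.Injective (B2Data.TB.gB (K := K) ax) := by
      refine line_inj h h2 ax h4 h3 _ _ B2Data.TB.e₂_inj (fun g i j => BlockTab.gB_apply _ ax g i j) 4 (fun r hr t i hi => ?_)
        ⟨0, by decide⟩ 1 (by decide) ?_
      · rw [xMat_entry]
        exact evalP_eq_zero (p := 2) t (b2B r hr i hi)
      · rw [xMat_entry, b2B']
        simp
    refine final_of_tab B2Data.TB ax _ (aut_of_tab B2Data.TB ax hA hB (mu_surj_b2 hperf)) (fun i hi => ?_)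
    have hL := b2L ⟨i, hi⟩
    exact ⟨h.simple_lt i hi, h.neg_lt _ (h.simple_lt i hi), hL.1, hL.2.1, hL.2.2.1, hL.2.2.2⟩
  · have ax : Ax chevF4 K := Cfsg.Agent.Lib.Lie.AxOf.ax_of_mem hmemF4
    have h := tab_of_mem hmemF4
    have h2 := tab2_of_mem hmemF4
    have h3 := tab3_of_mem hmemF4
    have h4 := tab4_of_mem hmemF4
    have hB : Function.Injective (F4Data.TB.gB (K := K) ax) := by
      refine line_inj h h2 ax h4 h3 _ _ F4Data.TB.e₂_inj (fun g i j => BlockTab.gB_apply _ ax g i j) 25 (fun r hr t i hi => ?_)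
        ⟨0, by decide⟩ 2 (by decide) ?_
      · rw [xMat_entry]
        exact evalP_eq_zero (p := 2) t (f4B r hr i hi)
      · rw [xMat_entry, f4B']
        simp
    refine final_of_tab F4Data.TB ax _ (aut_of_tab F4Data.TB ax (gA_inj ax) hB (mu_surj_f4 hperf)) (fun i hi => ?_)
    have hL := f4L ⟨i, hi⟩
    exact ⟨h.simple_lt i hi, h.neg_lt _ (h.simple_lt i hi), hL.1, hL.2.1, hL.2.2.1, hL.2.2.2⟩

end Cases

end Cfsg.Agent.Lib.F24.GraphAut
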