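import Cfsg.Agent.Lib.F24.Main
import Cfsg.Agent.Lib.Twisted.Cox

/-!
# `²F₄`: `N¹/H¹` is dihedral of order `16`
-/

set_option autoImplicit false
set_option linter.unusedSectionVars false
set_option linter.unusedVariables false
set_option linter.ambiguousOpen false

namespace Cfsg.Agent.Lib.F24.Quot

open scoped MatrixGroups Matrix
open Cfsg _root_.Cfsg.Lie ChevalleyDatum
open Cfsg.Agent.Lib.Chev
open Tables Tables2 Tables3 Raise Basic AxBasic Torus Products Products2 Mono1 Mono2 Mono3 Bn ChevSimple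
open Cfsg.Agent.Lib.Twisted.Fact Cfsg.Agent.Lib.Twisted.Bruhat Cfsg.Agent.Lib.Twisted.Tw
open Cfsg.Agent.Lib.Twisted.Struct Cfsg.Agent.Lib.Twisted.Check Cfsg.Agent.Lib.Twisted.Ortho
open Cfsg.Agent.Lib.Twisted.Cox
open Cfsg.Agent.Lib.F24.Blocks Cfsg.Agent.Lib.F24.F4Data Cfsg.Agent.Lib.F24.Tw Cfsg.Agent.Lib.F24.WordEq
open Cfsg.Agent.Lib.F24.TD Cfsg.Agent.Lib.F24.Main

section Dih

variable {G : Type*} [Group G]

lemma pow_add_val {n : ℕ} [NeZero n] {c : G} (hc : c ^ n = 1) (i j : ZMod n) :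
    c ^ (i + j).val = c ^ i.val * c ^ j.val := by
  rw [ZMod.val_add, ← pow_eq_pow_mod _ hc, pow_add]

lemma pow_neg_val {n : ℕ} [NeZero n] {c : G} (hc : c ^ n = 1) (i : ZMod n) :
    c ^ (-i).val = (c ^ i.val)⁻¹ := by
  have h := pow_add_val hc (-i) i
  rw [neg_add_cancel, ZMod.val_zero, pow_zero] at h
  exact eq_inv_of_mul_eq_one_left h.symm

lemma pow_sub_val {n : ℕ} [NeZero n] {c : G} (hc : c ^ n = 1) (j i : ZMod n) :
    c ^ (j - i).val = c ^ j.val * (c ^ i.val)⁻¹ := by
  rw [sub_eq_add_neg, pow_add_val hc, pow_neg_val hc]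

lemma conj_pow {a c : G} (ha : a * a = 1) (hac : a * c * a = c⁻¹) (k : ℕ) : a * c ^ k * a = (c ^ k)⁻¹ := by
  induction k with
  | zero => simpa using ha
  | succ k ih =>
    have e : a * c ^ (k + 1) * a = (a * c ^ k * a) * (a * c * a) := by
      have e2 : a * c ^ k * a * (a * c * a) = a * c ^ k * (a * a) * c * a := by group
      rw [e2, ha, pow_succ]
      group
    rw [e, ih, hac, pow_succ, _root_.mul_inv_rev]
    have : c⁻¹ * (c ^ k)⁻¹ = (c ^ k)⁻¹ * c⁻¹ := by
      rw [← zpow_natCast, ← zpow_neg, ← zpow_neg_one]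
      exact (Commute.zpow_zpow_self c _ _).eq
    exact this.symm

/-- A homomorphism from a dihedral group. -/
theorem exists_dih {n : ℕ} [NeZero n] (a b : G) (ha : a * a = 1) (hb : b * b = 1) (hc : (a * b) ^ n = 1) :
    ∃ f : DihedralGroup n →* G, (∀ i, f (DihedralGroup.r i) = (a * b) ^ i.val) ∧
      ∀ i, f (DihedralGroup.sr i) = a * (a * b) ^ i.val := by
  set c := a * b with hcd
  have hac : a * c * a = c⁻¹ := by
    rw [hcd, _root_.mul_inv_rev]
    have e1 : a⁻¹ = a := inv_eq_of_mul_eq_one_left ha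
    have e2 : b⁻¹ = b := inv_eq_of_mul_eq_one_left hb
    rw [e1, e2]
    have : a * (a * b) * a = (a * a) * b * a := by group
    rw [this, ha, one_mul]
  have hcp := conj_pow ha hac
  let F : DihedralGroup n → G := fun g => match g with
    | DihedralGroup.r i => c ^ i.val
    | DihedralGroup.sr i => a * c ^ i.val
  have hF : ∀ x y, F (x * y) = F x * F y := by
    rintro (i | i) (j | j)
    · show c ^ (i + j).val = c ^ i.val * c ^ j.val
      exact pow_add_val hc i j
    · show a * c ^ (j - i).val = c ^ i.val * (a * c ^ j.val)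
      rw [pow_sub_val hc]
      have h1 := hcp i.val
      have h2 : c ^ i.val * a = a * (c ^ i.val)⁻¹ := by
        rw [← h1]
        have : a * (a * c ^ i.val * a) = (a * a) * c ^ i.val * a := by group
        rw [this, ha, one_mul]
      have h3 : c ^ j.val * (c ^ i.val)⁻¹ = (c ^ i.val)⁻¹ * c ^ j.val := by
        rw [← zpow_natCast, ← zpow_natCast, ← zpow_neg]
        exact (Commute.zpow_zpow_self c _ _).eq
      rw [h3, ← mul_assoc, ← mul_assoc, h2]
    · show a * c ^ (i + j).val = a * c ^ i.val * c ^ j.val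
      rw [pow_add_val hc, mul_assoc]
    · show c ^ (j - i).val = a * c ^ i.val * (a * c ^ j.val)
      rw [pow_sub_val hc]
      have h1 := hcp i.val
      have h3 : c ^ j.val * (c ^ i.val)⁻¹ = (c ^ i.val)⁻¹ * c ^ j.val := by
        rw [← zpow_natCast, ← zpow_natCast, ← zpow_neg]
        exact (Commute.zpow_zpow_self c _ _).eq
      rw [h3, ← h1]
      group
  exact ⟨MonoidHom.mk' F hF, fun i => rfl, fun i => rfl⟩

end Dih

/-- The Coxeter element on the roots. -/
def cit (x : ℕ) : ℕ := wWord chevF4 [0, 3] (wWord chevF4 [1, 2, 1, 2] x)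

theorem c8 : ∀ r : Fin 48, cit^[8] r = r := by decide +kernel
theorem cne : ∀ i : Fin 8, i ≠ 0 → ∃ r : Fin 48, cit^[i] r ≠ r := by decide +kernel
theorem sne : ∀ i : Fin 8, ∃ r : Fin 48, wWord chevF4 [0, 3] (cit^[i] r) ≠ r := by decide +kernel

lemma l0 : ∀ i ∈ [0, 3], i < chevF4.rank := by decide
lemma l1 : ∀ i ∈ [1, 2, 1, 2], i < chevF4.rank := by decide

/-- The dihedral group acts on the roots. -/
theorem exists_f : ∃ f : DihedralGroup 8 →* Equiv.Perm (Fin chevF4.nroots), Function.Injective f ∧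
    f.range = Subgroup.closure (Set.range fun j : Fin 2 => wPw hF (Cf.wl j)) := by
  set a := wPw hF [0, 3] with hadef
  set b := wPw hF [1, 2, 1, 2] with hbdef
  have ha : a * a = 1 := by
    ext r
    have : ∀ r : Fin 48, wWord chevF4 [0, 3] (wWord chevF4 [0, 3] r) = r := by decide +kernel
    have h := this r
    simp only [Equiv.Perm.mul_apply, Equiv.Perm.one_apply, hadef, wPw_val hF l0]
    exact h
  have hb : b * b = 1 := by
    ext r
    have : ∀ r : Fin 48, wWord chevF4 [1, 2, 1, 2] (wWord chevF4 [1, 2, 1, 2] r) = r := by decide +kernel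
    have h := this r
    simp only [Equiv.Perm.mul_apply, Equiv.Perm.one_apply, hbdef, wPw_val hF l1]
    exact h
  have hit : ∀ (k : ℕ) (r : Fin chevF4.nroots), ((((a * b) ^ k) r : Fin chevF4.nroots) : ℕ) = cit^[k] r :=
    fun k r => wPw_iter hF l0 l1 k r
  have hc : (a * b) ^ 8 = 1 := by
    ext r
    rw [hit]
    exact c8 r
  obtain ⟨f, h1, h2⟩ := exists_dih (n := 8) a b ha hb hc
  refine ⟨f, ?_, ?_⟩
  · rw [injective_iff_map_eq_one]
    rintro (i | i) hg
    · rw [h1] at hg
      by_contra hi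
      have hi' : i ≠ 0 := fun h => hi (by rw [h]; rfl)
      have hv : i.val ≠ 0 := fun h => hi' ((ZMod.val_eq_zero i).mp h)
      obtain ⟨r, hr⟩ := cne ⟨i.val, ZMod.val_lt i⟩ (fun h => hv (congrArg Fin.val h))
      apply hr
      have := hit i.val r
      rw [hg] at this
      exact this.symm
    · exfalso
      rw [h2] at hg
      obtain ⟨r, hr⟩ := sne ⟨i.val, ZMod.val_lt i⟩
      apply hr
      have e : ((a (((a * b) ^ i.val) r) : Fin chevF4.nroots) : ℕ) = r := by
        have e := congrArg (fun p : Equiv.Perm (Fin chevF4.nroots) => ((p r : Fin chevF4.nroots) : ℕ)) hg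
        exact e
      have e3 : wWord chevF4 [0, 3] (((((a * b) ^ i.val) r : Fin chevF4.nroots)) : ℕ) = r := (wPw_val hF l0 _).symm.trans e
      exact (congrArg (wWord chevF4 [0, 3]) (hit i.val r)).symm.trans e3
  · have ma : a ∈ Subgroup.closure (Set.range fun j : Fin 2 => wPw hF (Cf.wl j)) :=
      Subgroup.subset_closure ⟨0, rfl⟩
    have mb : b ∈ Subgroup.closure (Set.range fun j : Fin 2 => wPw hF (Cf.wl j)) :=
      Subgroup.subset_closure ⟨1, rfl⟩
    apply le_antisymm
    · rintro _ ⟨g, rfl⟩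
      rcases g with i | i
      · rw [h1]
        exact Subgroup.pow_mem _ (Subgroup.mul_mem _ ma mb) _
      · rw [h2]
        exact Subgroup.mul_mem _ ma (Subgroup.pow_mem _ (Subgroup.mul_mem _ ma mb) _)
    · rw [Subgroup.closure_le]
      rintro _ ⟨j, rfl⟩
      fin_cases j
      · refine ⟨DihedralGroup.sr 0, ?_⟩
        rw [h2]
        simp [ZMod.val_zero]
        rfl
      · refine ⟨DihedralGroup.sr 1, ?_⟩
        rw [h2]
        have e : (1 : ZMod 8).val = 1 := rfl
        rw [e, pow_one, ← mul_assoc, ha, one_mul]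
        rfl

section Main

variable {K : Type*} [Field K] [Fintype K] {m : ℕ} (hK : Fintype.card K = 2 ^ (2 * m + 1))

include hK

theorem quot_main : ∃ φ : ↥(chevF4.monomialSubgroup K ⊓ twistedF4 K (2 ^ m)) →* DihedralGroup 8, Function.Surjective φ ∧
      φ.ker = (chevF4.diagonalSubgroup K ⊓ twistedF4 K (2 ^ m)).subgroupOf (chevF4.monomialSubgroup K ⊓ twistedF4 K (2 ^ m)) := by
  haveI := charP_of_card hK
  obtain ⟨φ, hφ, hφ2⟩ := exists_φ hK
  obtain ⟨f, hf, hr⟩ := exists_f
  exact (TF φ hφ hφ2 (Cfsg.Agent.Lib.Lie.AxOf.ax_of_mem hmemF4)).exists_quot hF2 f hf hr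

end Main

end Cfsg.Agent.Lib.F24.Quot
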